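import Cfsg.Agent.H593.K4.TwoBlock
import Cfsg.Agent.H536.K4.FxVal
import Cfsg.Agent.S4441

/-!
# The good characters of the principal block of defect one (helper536, row Ly of S4947 / S4547)

* `new_in_block` : a further good character in the principal `p`-block, if the sum of the values of some good ones
  at a `p`-singular element of odd order is an odd integer.
* `val_of_one` : `|N(P) : C(P)| = p - 1`: the values at the elements of order `p` are `± 1`.
* `exc_pair` : `|N(P) : C(P)| = (p - 1) / 2`: an exceptional rational character has a twin of the same degree.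
-/

set_option autoImplicit false
set_option linter.unusedSectionVars false

open scoped ComplexConjugate
open Cfsg Cfsg.Agent.Characters.Core Cfsg.Agent.Blocks.Local Cfsg.Agent.H536.K4.Gauss
open Cfsg.Agent.H618.Sigma Cfsg.Agent.H593.K4
open Cfsg.Agent.H601.K4 (Good Good5 SigFix OddIrr)
open Cfsg.Agent.H601.OddDeg (TwoC)

namespace Cfsg.Agent.H536.K4.LyBlock

universe u
variable {G : Type u} [Group G] [Finite G]

/-- a further good character in the principal block -/
theorem new_in_block (hC : TwoC G) {p : ℕ} [hp : Fact p.Prime] {N : Ideal AlgInt} (hN : IsPModular p N)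
    {t : G} (ht : Odd (orderOf t)) (hpt : p ∣ orderOf t) (s : Finset (IrrCharacter G))
    (hs : ∀ χ ∈ s, χ ∈ principalBlock N G ∧ Good (χ : G → ℂ)) {n : ℤ} (hn : Odd n)
    (hsum : ∑ χ ∈ s, (χ : G → ℂ) t = (n : ℂ)) :
    ∃ χ ∈ principalBlock N G, Good (χ : G → ℂ) ∧ χ ∉ s := by
  classical
  have := Fintype.ofFinite G
  have : Finite (IrrCharacter G) := finite_irr
  have := Fintype.ofFinite (IrrCharacter G)
  have hNp : N.IsPrime := isPrime_of_isPModular hN
  obtain ⟨k, hk⟩ := Cfsg.Agent.H329.K4.exists_cube G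
  set Q₁ : Finset (IrrCharacter G) := Finset.univ.filter fun χ => χ ∈ principalBlock N G with hQ₁
  have h1 : ∑ χ ∈ Q₁, (χ : G → ℂ) 1 * (χ : G → ℂ) t = 0 := sum_block hN Q₁ (by simp [hQ₁]) hpt
  have hs1 : ∀ χ ∈ Q₁, sig hk χ ∈ Q₁ := by
    intro χ hχ
    rw [hQ₁, Finset.mem_filter] at hχ ⊢
    exact ⟨Finset.mem_univ _, sig_mem_principalBlock hk hχ.2⟩
  obtain ⟨χ, hχ, hg, hns⟩ := exists_new_in hC hk Q₁ hs1 ht h1 s (fun χ hχ => by
    refine ⟨?_, (hs χ hχ).2⟩
    rw [hQ₁, Finset.mem_filter]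
    exact ⟨Finset.mem_univ _, (hs χ hχ).1⟩) hn hsum
  exact ⟨χ, (Finset.mem_filter.1 hχ).2, hg, hns⟩

/-- the values in the principal block, one exceptional character -/
theorem val_of_one {p : ℕ} [hp : Fact p.Prime] {M : Ideal AlgInt} (hM : IsPModular p M) (hodd : p ≠ 2)
    (P : Sylow p G) (hP : Nat.card P = p) {e : ℕ}
    (he : (Subgroup.centralizer ((P : Subgroup G) : Set G)).relIndex (Subgroup.normalizer ((P : Subgroup G) : Set G)) = e)
    (hpe : e + 1 = p) {z : G} (hz : z ∈ (P : Subgroup G)) (hz1 : z ≠ 1) {χ : IrrCharacter G}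
    (hχ : χ ∈ principalBlock M G) : ((χ : G → ℂ) z = 1 ∨ (χ : G → ℂ) z = -1) ∧
      ((p : ℤ) ∣ charDegree (χ : G → ℂ) - 1 ∨ (p : ℤ) ∣ charDegree (χ : G → ℂ) + 1) := by
  classical
  have := Fintype.ofFinite G
  have : Finite (IrrCharacter G) := finite_irr
  have := Fintype.ofFinite (IrrCharacter G)
  obtain ⟨X, Y, hXY, hdis, hX, hY, εX, ε, hXv, hε, hYd, hYa, hYs⟩ := S4441.result p M hM hodd P hP e he
  have hp1 : ¬ p ∣ orderOf (1 : G) := by
    rw [orderOf_one]
    exact hp.out.one_lt.ne' ∘ Nat.dvd_one.1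
  have hz7 : p ∣ orderOf z := by
    have h1 : orderOf z ∣ p := by
      rw [← hP]
      exact Subgroup.orderOf_dvd_natCard _ hz
    rcases (Nat.dvd_prime hp.out).1 h1 with h2 | h2
    · exact (hz1 (orderOf_eq_one_iff.1 h2)).elim
    · rw [h2]
  have hval : ∀ χ ∈ X, (χ : G → ℂ) z = (εX χ : ℂ) := by
    intro χ hχ
    have h1 := (hXv χ hχ).2.2 z hz hz1 1 (Subgroup.one_mem _) hp1
    rwa [mul_one] at h1
  rw [hXY] at hχ
  rcases hχ with hχ | hχ
  · obtain ⟨h1, h2, -⟩ := hXv χ hχ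
    rw [hval χ hχ]
    rw [Int.modEq_iff_dvd] at h2
    rcases h1 with h1 | h1 <;> rw [h1] at h2 ⊢
    · refine ⟨Or.inl (by simp), Or.inl ?_⟩
      have h3 := dvd_neg.2 h2
      rwa [neg_sub] at h3
    · refine ⟨Or.inr (by simp), Or.inr ?_⟩
      have h3 := dvd_neg.2 h2
      rwa [neg_sub, sub_neg_eq_add] at h3
  · -- the exceptional character
    have hY1 : Set.ncard Y = 1 := by
      rw [← Nat.card_coe_set_eq, hY]
      have h1 : p - 1 = e := by omega
      have h2 := hp.out.two_le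
      rw [h1, Nat.div_self (by omega)]
    obtain ⟨θ, hθ⟩ := Set.ncard_eq_one.1 hY1
    have hχθ : χ = θ := by rw [hθ] at hχ; exact hχ
    have hθX : θ ∉ X := fun h => Set.disjoint_left.1 hdis h (by rw [hθ]; rfl)
    have hQ : (Finset.univ.filter fun ξ : IrrCharacter G => ξ ∈ principalBlock M G) =
        insert θ (Finset.univ.filter fun ξ : IrrCharacter G => ξ ∈ X) := by
      ext ξ
      simp only [Finset.mem_filter, Finset.mem_univ, true_and, Finset.mem_insert]
      rw [hXY, hθ, Set.mem_union, Set.mem_singleton_iff, or_comm]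
    have h1 := sum_block hM (Finset.univ.filter fun ξ : IrrCharacter G => ξ ∈ principalBlock M G) (by simp) hz7
    rw [hQ, Finset.sum_insert (by simpa using hθX)] at h1
    have h2 := hYs θ (by rw [hθ]; rfl) 1 hp1
    rw [finsum_mem_eq_finite_toFinset_sum _ (Set.toFinite X)] at h2
    have h3 : (Set.toFinite X).toFinset = Finset.univ.filter fun ξ : IrrCharacter G => ξ ∈ X := by
      ext ξ
      simp
    rw [h3] at h2
    have h4 : ∑ ξ ∈ Finset.univ.filter (fun ξ : IrrCharacter G => ξ ∈ X), (ξ : G → ℂ) 1 * (ξ : G → ℂ) z =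
        (ε : ℂ) * (θ : G → ℂ) 1 := by
      rw [h2]
      refine Finset.sum_congr rfl fun ξ hξ => ?_
      rw [hval ξ (Finset.mem_filter.1 hξ).2, mul_comm]
    rw [h4] at h1
    have h5 : (θ : G → ℂ) 1 ≠ 0 := by
      rw [Cfsg.Agent.Blocks.Basic.irr_one_eq_charDegree θ.2]
      exact Nat.cast_ne_zero.2 (Cfsg.Agent.Blocks.Basic.charDegree_pos θ.2).ne'
    have h6 : (θ : G → ℂ) z = -(ε : ℂ) := by
      have h7 : (θ : G → ℂ) 1 * ((θ : G → ℂ) z + (ε : ℂ)) = 0 := by
        rw [← h1]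
        ring
      rcases mul_eq_zero.1 h7 with h8 | h8
      · exact (h5 h8).elim
      · exact eq_neg_of_add_eq_zero_left h8
    have h7 := hYd θ (by rw [hθ]; rfl)
    rw [Int.modEq_iff_dvd] at h7
    have h8 : (e : ℤ) = p - 1 := by
      rw [← hpe]
      push_cast
      ring
    rw [h8] at h7
    rw [hχθ, h6]
    rcases hε with h1 | h1 <;> rw [h1] at h7 ⊢
    · refine ⟨Or.inr (by simp), Or.inr ?_⟩
      have h9 : ((charDegree (θ : G → ℂ) : ℤ) + 1) = (p : ℤ) - (1 * ((p : ℤ) - 1) - (charDegree (θ : G → ℂ) : ℤ)) := by ring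
      rw [h9]
      exact dvd_sub (dvd_refl _) h7
    · refine ⟨Or.inl (by simp), Or.inl ?_⟩
      have h9 : ((charDegree (θ : G → ℂ) : ℤ) - 1) = -(p : ℤ) - (-1 * ((p : ℤ) - 1) - (charDegree (θ : G → ℂ) : ℤ)) := by ring
      rw [h9]
      exact dvd_sub (dvd_neg.2 (dvd_refl _)) h7

theorem centralizer_pow' {m : ℕ} (hm : m.Coprime (Nat.card G)) (g : G) :
    Subgroup.centralizer ({g ^ m} : Set G) = Subgroup.centralizer ({g} : Set G) := by
  obtain ⟨j, hj⟩ := exists_pow_eq_self_of_coprime (hm.coprime_dvd_right (orderOf_dvd_natCard g))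
  ext a
  rw [Subgroup.mem_centralizer_singleton_iff, Subgroup.mem_centralizer_singleton_iff]
  constructor
  · intro ha
    have h1 : Commute (g ^ m) a := ha.symm
    have h2 := h1.pow_left j
    rw [hj] at h2
    exact h2.symm.eq
  · intro ha
    have h1 : Commute g a := ha.symm
    exact (h1.pow_left m).symm.eq

theorem pw_mem_principalBlock {m : ℕ} (hm : m.Coprime (Nat.card G)) {M : Ideal AlgInt} {χ : IrrCharacter G}
    (hχ : χ ∈ principalBlock M G) : pw hm χ ∈ principalBlock M G := by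
  intro g
  have h1 := hχ (g ^ m)
  have h2 : centralChar (fun _ : G => (1 : ℂ)) (g ^ m) - centralChar (χ : G → ℂ) (g ^ m) =
      centralChar (fun _ : G => (1 : ℂ)) g - centralChar (pw hm χ : G → ℂ) g := by
    unfold centralChar
    rw [centralizer_pow' hm, pw_apply, pw_apply, one_pow]
  rwa [h2] at h1

theorem good_pw (hC : TwoC G) {m : ℕ} (hm : m.Coprime (Nat.card G)) {χ : IrrCharacter G}
    (h : Good (χ : G → ℂ)) : Good (pw hm χ : G → ℂ) := by
  refine Cfsg.Agent.H329.K4.good_of hC ⟨(pw hm χ).2, ?_⟩ ?_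
  · rw [charDegree_pw]
    exact h.odd.2
  · intro k h2 h3 g
    rw [pw_apply, pw_apply, ← pow_mul, mul_comm, pow_mul]
    exact h.sig k h2 h3 (g ^ m)

/-- **The twin of an exceptional rational character.** -/
theorem exc_pair {p : ℕ} [hp : Fact p.Prime] {M : Ideal AlgInt} (hM : IsPModular p M) (hodd : p ≠ 2)
    (P : Sylow p G) (hP : Nat.card P = p) {e : ℕ}
    (he : (Subgroup.centralizer ((P : Subgroup G) : Set G)).relIndex (Subgroup.normalizer ((P : Subgroup G) : Set G)) = e)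
    (h2 : (p - 1) / e = 2) {c : IrrCharacter G} (hc : c ∈ principalBlock M G)
    (h1 : ¬ (p : ℤ) ∣ charDegree (c : G → ℂ) - 1) (h1' : ¬ (p : ℤ) ∣ charDegree (c : G → ℂ) + 1) (hfx : Fx c) :
    ∃ θ : IrrCharacter G, θ ≠ c ∧ charDegree (θ : G → ℂ) = charDegree (c : G → ℂ) ∧ Fx θ := by
  classical
  have := Fintype.ofFinite G
  obtain ⟨X, Y, hXY, hdis, hX, hY, εX, ε, hXv, hε, hYd, hYa, hYs⟩ := S4441.result p M hM hodd P hP e he
  have hnX : ∀ ξ : IrrCharacter G, charDegree (ξ : G → ℂ) = charDegree (c : G → ℂ) → ξ ∉ X := by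
    intro ξ hξ h
    obtain ⟨h3, h4, -⟩ := hXv ξ h
    rw [hξ, Int.modEq_iff_dvd] at h4
    have h5 := dvd_neg.2 h4
    rw [neg_sub] at h5
    rcases h3 with h3 | h3 <;> rw [h3] at h5
    · exact h1 h5
    · rw [sub_neg_eq_add] at h5
      exact h1' h5
  have hmem : ∀ ξ ∈ principalBlock M G, charDegree (ξ : G → ℂ) = charDegree (c : G → ℂ) → ξ ∈ Y := by
    intro ξ hξ h
    rw [hXY] at hξ
    exact hξ.resolve_left (hnX ξ h)
  have hcY := hmem c hc rfl
  have hp1 : ¬ p ∣ orderOf (1 : G) := by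
    rw [orderOf_one]
    exact hp.out.one_lt.ne' ∘ Nat.dvd_one.1
  have hdeg : ∀ θ ∈ Y, charDegree (θ : G → ℂ) = charDegree (c : G → ℂ) := by
    intro θ hθ
    have h3 := hYa θ hθ c hcY 1 hp1
    rw [Cfsg.Agent.Blocks.Basic.irr_one_eq_charDegree θ.2, Cfsg.Agent.Blocks.Basic.irr_one_eq_charDegree c.2] at h3
    exact_mod_cast h3
  have hY2 : Set.ncard Y = 2 := by rw [← Nat.card_coe_set_eq, hY, h2]
  have key : ∃ θ : IrrCharacter G, θ ≠ c ∧ Y = {c, θ} := by
    obtain ⟨a, b, hab, hYab⟩ := Set.ncard_eq_two.1 hY2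
    rw [hYab] at hcY
    rcases hcY with h3 | h3
    · exact ⟨b, h3 ▸ hab.symm, by rw [hYab, h3]⟩
    · rw [Set.mem_singleton_iff] at h3
      exact ⟨a, h3 ▸ hab, by rw [hYab, h3, Set.pair_comm]⟩
  obtain ⟨θ, hne, hYθ⟩ := key
  have hθY : θ ∈ Y := by rw [hYθ]; simp
  refine ⟨θ, hne, hdeg θ hθY, ?_⟩
  rw [fx_iff]
  intro k hk
  have h3 : pw hk θ ∈ Y := by
    refine hmem _ (pw_mem_principalBlock hk ?_) (by rw [charDegree_pw]; exact hdeg θ hθY)
    rw [hXY]
    exact Or.inr hθY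
  rw [hYθ] at h3
  rcases h3 with h3 | h3
  · exact (hne (pw_injective hk (h3.trans (fx_iff.1 hfx k hk).symm))).elim
  · exact h3

end Cfsg.Agent.H536.K4.LyBlock
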