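import Cfsg.Agent.H536.K4.LyBlock
import Cfsg.Agent.H536.K4.LySearch
import Cfsg.Agent.H707.Odd.Mod
import Cfsg.Agent.H604.FD.Inner
import Cfsg.Agent.S0165

/-!
# Five good characters from the local data of the Lyons group (helper536)

`Data` : the order, the centralizers of the elements of order 7, 11, 31, 37, 67, the rational character of degree
4226695. Suppose that there are only four good characters `1, ψ, c, d`.

* `p = 7` : `ψ` is not in the principal 7-block, the values there are `± 1` at the elements of order 7, so exactly one of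
  `c`, `d` is in the principal 7-block. Both are rational.
* `p = 31, 37, 67` : exactly one of `c`, `d` is of defect zero, the degree of the other one is `± 1` modulo `p`.
* `p = 11` : `c` or `d` is in the principal 11-block, its degree is `± 1` or `± 5` modulo 11.
* Four possible pairs of degrees remain. For the degree 3871125 the character is exceptional for `p = 11`, the other
  exceptional character is a fifth good one. A character of degree 70804125 vanishes at the 3-singular elements, so its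
  value at an element of order 11 is divisible by 3, it is `-4` or `7`.
-/

set_option autoImplicit false
set_option linter.unusedSectionVars false

open scoped ComplexConjugate
open Cfsg Cfsg.Agent.Characters.Core Cfsg.Agent.Blocks.Local Cfsg.Agent.H536.K4.Gauss
open Subgroup hiding one
open Cfsg.Agent.H618.Sigma Cfsg.Agent.H536.K4.LyBlock
open Cfsg.Agent.H601.K4 (Good Good5 SigFix OddIrr)
open Cfsg.Agent.H601.OddDeg (TwoC)

namespace Cfsg.Agent.H536.K4.LyGood

universe u
variable {G : Type u} [Group G] [Finite G] {ψ c d : IrrCharacter G}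

/-- the hypotheses -/
structure Data (ψ : IrrCharacter G) : Prop where
  card : Nat.card G = 51765179004000000
  twoC : TwoC G
  lin : ∀ χ : IrrCharacter G, charDegree (χ : G → ℂ) = 1 → ∀ g, (χ : G → ℂ) g = 1
  fx : Fx ψ
  dψ : charDegree (ψ : G → ℂ) = 4226695
  c67 : ∀ x : G, orderOf x = 67 → Nat.card (centralizer ({x} : Set G)) = 67
  c37 : ∀ x : G, orderOf x = 37 → Nat.card (centralizer ({x} : Set G)) = 37
  c31 : ∀ x : G, orderOf x = 31 → Nat.card (centralizer ({x} : Set G)) = 31
  c11 : ∀ R : Subgroup G, Nat.card R = 11 → Nat.card (centralizer (R : Set G)) = 66 ∧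
    Nat.card (normalizer (R : Set G)) = 330
  c7 : ∀ R : Subgroup G, Nat.card R = 7 → Nat.card (centralizer (R : Set G)) = 168 ∧
    Nat.card (normalizer (R : Set G)) = 1008

/-- the trivial character -/
def one : IrrCharacter G := ⟨fun _ => (1 : ℂ), Cfsg.Agent.Blocks.Basic.isIrrCharacter_one⟩

theorem one_apply (g : G) : (one : IrrCharacter G).1 g = 1 := rfl

theorem charDegree_one : charDegree ((one : IrrCharacter G) : G → ℂ) = 1 := by
  apply Cfsg.Agent.Blocks.Basic.charDegree_of_eq
  rw [one_apply, Nat.cast_one]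

theorem fx_one : Fx (one : IrrCharacter G) := fun _ _ _ => rfl

theorem vl_one (g : G) : vl (one : IrrCharacter G) g = 1 := by
  unfold vl
  rw [show ((one : IrrCharacter G) : G → ℂ) g = 1 from rfl]
  simp

theorem Data.one_ne (D : Data ψ) : (one : IrrCharacter G) ≠ ψ := by
  intro h
  have h2 := charDegree_one (G := G)
  rw [h, D.dψ] at h2
  omega

/-! ### general tools -/

theorem dz {p n : ℕ} (hp : p.Prime) {χ : IrrCharacter G} (h1 : p ^ n ∣ Nat.card G) (h2 : ¬ p ^ (n + 1) ∣ Nat.card G)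
    (h3 : p ^ n ∣ charDegree (χ : G → ℂ)) {x : G} (hx : p ∣ orderOf x) : (χ : G → ℂ) x = 0 := by
  obtain ⟨χ, hχ⟩ := χ
  obtain ⟨m, ρ, hρ, rfl⟩ := hχ
  refine Cfsg.Agent.S0165.result ρ p n hp h1 h2 ?_ x hx
  have h4 : charDegree ρ.character = Module.finrank ℂ (Fin m → ℂ) := by
    apply Cfsg.Agent.Blocks.Basic.charDegree_of_eq
    exact Representation.char_one _
  rw [← h4]
  exact h3

theorem exists_sylow {p : ℕ} [hp : Fact p.Prime] (h1 : p ∣ Nat.card G) (h2 : ¬ p ^ 2 ∣ Nat.card G) {y : G}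
    (hy : orderOf y = p) : ∃ P : Sylow p G, Nat.card P = p ∧ (P : Subgroup G) = zpowers y ∧
      centralizer ((P : Subgroup G) : Set G) = centralizer ({y} : Set G) := by
  have hfac : (Nat.card G).factorization p = 1 := by
    have h3 := (hp.out.dvd_iff_one_le_factorization Nat.card_pos.ne').1 h1
    have h4 : ¬ 2 ≤ (Nat.card G).factorization p := fun h3 =>
      h2 ((hp.out.pow_dvd_iff_le_factorization Nat.card_pos.ne').2 h3)
    omega
  refine ⟨Sylow.ofCard (zpowers y) (by rw [Nat.card_zpowers, hy, hfac, pow_one]), ?_, rfl, ?_⟩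
  · change Nat.card (zpowers y) = p
    rw [Nat.card_zpowers, hy]
  · change centralizer ((zpowers y : Subgroup G) : Set G) = _
    rw [zpowers_eq_closure, centralizer_closure]

theorem relIndex_of (R : Subgroup G) {a b e : ℕ} (ha : Nat.card (centralizer (R : Set G)) = a)
    (hb : Nat.card (normalizer (R : Set G)) = b) (hab : b = a * e) (h0 : 0 < a) :
    (centralizer (R : Set G)).relIndex (normalizer (R : Set G)) = e := by
  have h1 := relIndex_mul_relIndex ⊥ (centralizer (R : Set G)) (normalizer (R : Set G)) bot_le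
    (centralizer_le_normalizer _)
  rw [relIndex_bot_left, relIndex_bot_left, ha, hb, hab] at h1
  exact Nat.eq_of_mul_eq_mul_left h0 h1

/-- the values at a self-centralizing element of prime order -/
theorem sc_val {χ : IrrCharacter G} (hfx : Fx χ) (hne : (one : IrrCharacter G) ≠ χ) {p e b : ℕ} [hp : Fact p.Prime]
    {y : G} (hy : orderOf y = p) (hC : Nat.card (centralizer ({y} : Set G)) = p) (h1 : p ∣ Nat.card G)
    (h2 : ¬ p ^ 2 ∣ Nat.card G) (he : (Nat.card G / p) % p = e) (hb : p ≤ b * b) (hbe : b ≤ e) (hbp : b + e ≤ p)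
    (hp2 : p ≠ 2) (h1b : 1 ≤ b) :
    (vl χ y = 0 ∧ (p : ℤ) ∣ charDegree (χ : G → ℂ)) ∨ (vl χ y = 1 ∧ (p : ℤ) ∣ charDegree (χ : G → ℂ) - 1) ∨
      (vl χ y = -1 ∧ (p : ℤ) ∣ charDegree (χ : G → ℂ) + 1) := by
  classical
  -- the bound
  have h3 := sum_sq_le ({(one : IrrCharacter G), χ} : Finset (IrrCharacter G)) (by
    intro φ hφ
    rw [Finset.mem_insert, Finset.mem_singleton] at hφ
    rcases hφ with rfl | rfl
    · exact fx_one
    · exact hfx) y
  rw [Finset.sum_insert (by simpa using hne), Finset.sum_singleton, vl_one, hC] at h3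
  have hb' : (p : ℤ) ≤ b * b := by exact_mod_cast hb
  have hbe' : (b : ℤ) ≤ e := by exact_mod_cast hbe
  have hbp' : (b : ℤ) + e ≤ p := by exact_mod_cast hbp
  have h1b' : (1 : ℤ) ≤ b := by exact_mod_cast h1b
  have h4 : vl χ y < b := by
    by_contra h
    push Not at h
    nlinarith
  have h5 : -(b : ℤ) < vl χ y := by
    by_contra h
    push Not at h
    nlinarith
  have h6 := hfx.modEq hy
  -- the degree
  obtain ⟨P, hP, -, hPC⟩ := exists_sylow h1 h2 hy
  have hCP : Nat.card (centralizer ((P : Subgroup G) : Set G)) = p := by rw [hPC, hC]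
  have h7 := Cfsg.Agent.H707.Odd.degree_mod hp2 P hP hCP
    ((Cfsg.Agent.H604.FD.Inner.relIndex_eq P hP hCP).trans he) χ
    (Cfsg.Agent.Blocks.Basic.irr_one_eq_charDegree χ.2)
  have key : ∀ r : ℤ, (p : ℤ) ∣ charDegree (χ : G → ℂ) - r → -(p : ℤ) < vl χ y - r → vl χ y - r < p → vl χ y = r := by
    intro r hr h8 h9
    have h10 : (p : ℤ) ∣ vl χ y - r := by
      have := dvd_add h6 hr
      rwa [show vl χ y - (charDegree (χ : G → ℂ) : ℤ) + ((charDegree (χ : G → ℂ) : ℤ) - r) = vl χ y - r by ring] at this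
    have h11 := Int.eq_zero_of_abs_lt_dvd h10 (abs_lt.2 ⟨h8, h9⟩)
    linarith
  have conv : ∀ r : ℤ, (charDegree (χ : G → ℂ) : ℤ) ≡ r [ZMOD p] → (p : ℤ) ∣ charDegree (χ : G → ℂ) - r := by
    intro r hr
    have := dvd_neg.2 (Int.modEq_iff_dvd.1 hr)
    rwa [neg_sub] at this
  rcases h7 with h | h | h | h | h
  · have h8 : (p : ℤ) ∣ charDegree (χ : G → ℂ) := by exact_mod_cast h
    exact Or.inl ⟨key 0 (by rwa [sub_zero]) (by linarith) (by linarith), h8⟩
  · exact Or.inr (Or.inl ⟨key 1 (conv _ h) (by linarith) (by linarith), conv _ h⟩)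
  · have h8 := conv _ h
    refine Or.inr (Or.inr ⟨key (-1) h8 (by linarith) (by linarith), ?_⟩)
    rwa [sub_neg_eq_add] at h8
  · have h8 := key e (conv _ h) (by linarith) (by linarith)
    linarith
  · have h8 := key (-e) (conv _ h) (by linarith) (by linarith)
    linarith

/-- the congruence modulo a prime -/
theorem modEq_of_mul {χ : IrrCharacter G} (hfx : Fx χ) {p : ℕ} [hp : Fact p.Prime] {y w : G} (hw : orderOf w = p)
    (hy : ¬ p ∣ orderOf y) (hc : Commute w y) : (p : ℤ) ∣ vl χ (w * y) - vl χ y := by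
  obtain ⟨M, hM⟩ := Cfsg.Agent.Blocks.ExistsModular.exists_isPModular hp.out
  have hMp : M.IsPrime := hM.2.1.isPrime
  have h1 : IsPPart p (w * y) w := ⟨y, rfl, hc, ⟨1, by rw [hw, pow_one]⟩, hy⟩
  have h2 := Cfsg.Agent.CharactersDeep.ModCongr.memLocalIdeal_character_sub hM χ.2 (w * y) w h1
  rw [inv_mul_cancel_left, hfx.val, hfx.val] at h2
  rw [← Int.cast_sub, memLocalIdeal_intCast_iff hM] at h2
  exact h2

/-! ### four good characters -/

/-- exactly four good characters -/
structure Four (ψ c d : IrrCharacter G) : Prop where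
  D : Data ψ
  mem : ∀ χ : IrrCharacter G, Good (χ : G → ℂ) ↔ χ = one ∨ χ = ψ ∨ χ = c ∨ χ = d
  h1c : (one : IrrCharacter G) ≠ c
  h1d : (one : IrrCharacter G) ≠ d
  hψc : ψ ≠ c
  hψd : ψ ≠ d
  hcd : c ≠ d

theorem Four.symm (F : Four ψ c d) : Four ψ d c where
  D := F.D
  mem χ := by rw [F.mem]; tauto
  h1c := F.h1d
  h1d := F.h1c
  hψc := F.hψd
  hψd := F.hψc
  hcd := F.hcd.symm

/-- the parity of the sum of the good characters -/
theorem Four.not_odd (F : Four ψ c d) {t : G} (ht : Odd (orderOf t)) {n : ℤ}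
    (h : 1 + (ψ : G → ℂ) t + (c : G → ℂ) t + (d : G → ℂ) t = n) : ¬ Odd n := by
  classical
  intro hn
  have hC := F.D.twoC
  have hev : Even (Nat.card G) := by rw [F.D.card]; decide
  obtain ⟨s, hs⟩ : ∃ s : Finset (G → ℂ), s = {((one : IrrCharacter G) : G → ℂ), (ψ : G → ℂ), (c : G → ℂ),
    (d : G → ℂ)} := ⟨_, rfl⟩
  have hmem : ∀ φ : G → ℂ, φ ∈ s ↔ φ = ((one : IrrCharacter G) : G → ℂ) ∨ φ = (ψ : G → ℂ) ∨ φ = (c : G → ℂ) ∨ φ = (d : G → ℂ) := by
    intro φ
    rw [hs]
    simp only [Finset.mem_insert, Finset.mem_singleton]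
  have hgood : ∀ φ ∈ s, Good φ := by
    intro φ hφ
    rcases (hmem φ).1 hφ with h1 | h1 | h1 | h1 <;> rw [h1]
    · exact (F.mem one).2 (Or.inl rfl)
    · exact (F.mem ψ).2 (Or.inr (Or.inl rfl))
    · exact (F.mem c).2 (Or.inr (Or.inr (Or.inl rfl)))
    · exact (F.mem d).2 (Or.inr (Or.inr (Or.inr rfl)))
  have hne : ∀ {a b : IrrCharacter G}, a ≠ b → (a : G → ℂ) ≠ (b : G → ℂ) := fun h h' => h (Subtype.ext h')
  obtain ⟨φ, hφ, hφs⟩ := Cfsg.Agent.H329.K4.exists_new hC hev s hgood ht hn (by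
    rw [hs, Finset.sum_insert, Finset.sum_insert, Finset.sum_insert, Finset.sum_singleton, ← h,
      show ((one : IrrCharacter G) : G → ℂ) t = 1 from rfl]
    · ring
    · simpa using hne F.hcd
    · simpa using ⟨hne F.hψc, hne F.hψd⟩
    · simpa using ⟨hne F.D.one_ne, hne F.h1c, hne F.h1d⟩)
  apply hφs
  rw [hmem]
  rcases (F.mem ⟨φ, hφ.odd.1⟩).1 hφ with h1 | h1 | h1 | h1
  · exact Or.inl (congrArg Subtype.val h1)
  · exact Or.inr (Or.inl (congrArg Subtype.val h1))
  · exact Or.inr (Or.inr (Or.inl (congrArg Subtype.val h1)))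
  · exact Or.inr (Or.inr (Or.inr (congrArg Subtype.val h1)))

/-! ### the rationality from the principal 7-block -/

theorem Four.fx_of_block (F : Four ψ c d) {M : Ideal AlgInt} (hc : c ∈ principalBlock M G)
    (hd : d ∉ principalBlock M G) : Fx c ∧ Fx d := by
  have hC := F.D.twoC
  have gc : Good (c : G → ℂ) := (F.mem c).2 (by simp)
  have gd : Good (d : G → ℂ) := (F.mem d).2 (by simp)
  have f1 : ∀ (m : ℕ) (hm : m.Coprime (Nat.card G)), pw hm (one : IrrCharacter G) = one := fx_iff.1 fx_one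
  have fψ : ∀ (m : ℕ) (hm : m.Coprime (Nat.card G)), pw hm ψ = ψ := fx_iff.1 F.D.fx
  have fc : Fx c := by
    rw [fx_iff]
    intro m hm
    have hinj := pw_injective (G := G) hm
    rcases (F.mem _).1 (good_pw hC hm gc) with h | h | h | h
    · exact (F.h1c (hinj ((f1 m hm).trans h.symm))).elim
    · exact (F.hψc (hinj ((fψ m hm).trans h.symm))).elim
    · exact h
    · exact (hd (h ▸ pw_mem_principalBlock hm hc)).elim
  refine ⟨fc, ?_⟩
  rw [fx_iff]
  intro m hm
  have hinj := pw_injective (G := G) hm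
  rcases (F.mem _).1 (good_pw hC hm gd) with h | h | h | h
  · exact (F.h1d (hinj ((f1 m hm).trans h.symm))).elim
  · exact (F.hψd (hinj ((fψ m hm).trans h.symm))).elim
  · exact (F.hcd (hinj ((fx_iff.1 fc m hm).trans h.symm))).elim
  · exact h

/-- **The prime 7.** -/
theorem Four.seven (F : Four ψ c d) : Fx c ∧ Fx d ∧
    ((charDegree (c : G → ℂ) % 7 = 1 ∨ charDegree (c : G → ℂ) % 7 = 6) ∨
      (charDegree (d : G → ℂ) % 7 = 1 ∨ charDegree (d : G → ℂ) % 7 = 6)) := by
  classical
  have D := F.D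
  have hf : Fact (Nat.Prime 7) := ⟨by norm_num⟩
  obtain ⟨z, hz⟩ := exists_prime_orderOf_dvd_card' (G := G) 7 (by rw [D.card]; norm_num)
  obtain ⟨P, hP, hPz, -⟩ := exists_sylow (by rw [D.card]; norm_num) (by rw [D.card]; norm_num) hz
  obtain ⟨M, hM⟩ := Cfsg.Agent.Blocks.ExistsModular.exists_isPModular hf.out
  have hMp : M.IsPrime := hM.2.1.isPrime
  obtain ⟨h1, h2⟩ := D.c7 (P : Subgroup G) hP
  have he := relIndex_of (P : Subgroup G) (e := 6) h1 h2 (by norm_num) (by norm_num)
  have hzP : z ∈ (P : Subgroup G) := by rw [hPz]; exact mem_zpowers z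
  have hz1 : z ≠ 1 := by
    rintro rfl
    rw [orderOf_one] at hz
    omega
  have B := fun (χ : IrrCharacter G) (hχ : χ ∈ principalBlock M G) =>
    val_of_one hM (by norm_num) P hP he (by norm_num) hzP hz1 hχ
  have m1 : (one : IrrCharacter G) ∈ principalBlock M G := Cfsg.Agent.Blocks.PrincipalSection.one_mem_principalBlock
  have mψ : ψ ∉ principalBlock M G := by
    intro h
    have h6 := (B ψ h).2
    rw [D.dψ] at h6
    omega
  have g1 : Good ((one : IrrCharacter G) : G → ℂ) := (F.mem one).2 (by simp)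
  have gc : Good (c : G → ℂ) := (F.mem c).2 (by simp)
  have gd : Good (d : G → ℂ) := (F.mem d).2 (by simp)
  have ho : Odd (orderOf z) := by rw [hz]; decide
  by_cases mc : c ∈ principalBlock M G <;> by_cases md : d ∈ principalBlock M G
  · exfalso
    have vc := (B c mc).1
    have vd := (B d md).1
    obtain ⟨n, hn, hsum⟩ : ∃ n : ℤ, Odd n ∧ 1 + (c : G → ℂ) z + (d : G → ℂ) z = n := by
      rcases vc with h | h <;> rcases vd with h' | h' <;> rw [h, h']
      · exact ⟨3, by decide, by norm_num⟩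
      · exact ⟨1, by decide, by norm_num⟩
      · exact ⟨1, by decide, by norm_num⟩
      · exact ⟨-1, by decide, by norm_num⟩
    obtain ⟨χ, hχ, hg, hns⟩ := new_in_block D.twoC hM ho (by rw [hz]) ({one, c, d} : Finset (IrrCharacter G)) (by
      intro χ hχ
      simp only [Finset.mem_insert, Finset.mem_singleton] at hχ
      rcases hχ with rfl | rfl | rfl
      · exact ⟨m1, g1⟩
      · exact ⟨mc, gc⟩
      · exact ⟨md, gd⟩) hn (by
      rw [Finset.sum_insert (by simpa using ⟨F.h1c, F.h1d⟩), Finset.sum_pair F.hcd, ← hsum,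
        show ((one : IrrCharacter G) : G → ℂ) z = 1 from rfl]
      ring)
    simp only [Finset.mem_insert, Finset.mem_singleton, not_or] at hns
    rcases (F.mem χ).1 hg with h | h | h | h
    · exact hns.1 h
    · exact mψ (h ▸ hχ)
    · exact hns.2.1 h
    · exact hns.2.2 h
  · obtain ⟨h3, h4⟩ := F.fx_of_block mc md
    refine ⟨h3, h4, Or.inl ?_⟩
    have h6 := (B c mc).2
    omega
  · obtain ⟨h3, h4⟩ := F.symm.fx_of_block md mc
    refine ⟨h4, h3, Or.inr ?_⟩
    have h6 := (B d md).2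
    omega
  · exfalso
    obtain ⟨χ, hχ, hg, hns⟩ := new_in_block D.twoC hM ho (by rw [hz]) ({one} : Finset (IrrCharacter G)) (by
      intro χ hχ
      rw [Finset.mem_singleton] at hχ
      rw [hχ]
      exact ⟨m1, g1⟩) (n := 1) (by decide) (by
      rw [Finset.sum_singleton, show ((one : IrrCharacter G) : G → ℂ) z = 1 from rfl]
      norm_num)
    rw [Finset.mem_singleton] at hns
    rcases (F.mem χ).1 hg with h | h | h | h
    · exact hns h
    · exact mψ (h ▸ hχ)
    · exact mc (h ▸ hχ)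
    · exact md (h ▸ hχ)

/-! ### the self-centralizing primes -/

theorem Four.sc (F : Four ψ c d) {p e b : ℕ} [hp : Fact p.Prime] (hcc : ∀ x : G, orderOf x = p →
    Nat.card (centralizer ({x} : Set G)) = p) (h1 : p ∣ Nat.card G)
    (h2 : ¬ p ^ 2 ∣ Nat.card G) (he : (Nat.card G / p) % p = e) (hb : p ≤ b * b) (hbe : b ≤ e) (hbp : b + e ≤ p)
    (hp2 : p ≠ 2) (h1b : 1 ≤ b) (hψ : p ∣ 4226695) :
    ((p : ℤ) ∣ charDegree (c : G → ℂ) ∧ ((p : ℤ) ∣ charDegree (d : G → ℂ) - 1 ∨ (p : ℤ) ∣ charDegree (d : G → ℂ) + 1)) ∨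
    ((p : ℤ) ∣ charDegree (d : G → ℂ) ∧ ((p : ℤ) ∣ charDegree (c : G → ℂ) - 1 ∨ (p : ℤ) ∣ charDegree (c : G → ℂ) + 1)) := by
  obtain ⟨fc, fd, -⟩ := F.seven
  obtain ⟨y, hy⟩ := exists_prime_orderOf_dvd_card' (G := G) p h1
  have hC := hcc y hy
  have vψ := sc_val F.D.fx F.D.one_ne hy hC h1 h2 he hb hbe hbp hp2 h1b
  have vc := sc_val fc F.h1c hy hC h1 h2 he hb hbe hbp hp2 h1b
  have vd := sc_val fd F.h1d hy hC h1 h2 he hb hbe hbp hp2 h1b
  have hψ' : (p : ℤ) ∣ charDegree (ψ : G → ℂ) := by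
    rw [F.D.dψ]
    exact_mod_cast hψ
  have hnu : ¬ (p : ℤ) ∣ 1 := by
    intro h
    have h3 : p ∣ 1 := by exact_mod_cast h
    exact hp.out.one_lt.ne' (Nat.dvd_one.1 h3)
  have v0 : vl ψ y = 0 := by
    rcases vψ with h | h | h
    · exact h.1
    · exact (hnu (by have := dvd_sub hψ' h.2; rwa [sub_sub_cancel] at this)).elim
    · exact (hnu (by have := dvd_sub h.2 hψ'; rwa [add_sub_cancel_left] at this)).elim
  have hpar := F.not_odd (t := y) (n := 1 + vl ψ y + vl c y + vl d y) (by rw [hy]; exact hp.out.odd_of_ne_two hp2) (by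
    rw [F.D.fx.val y, fc.val y, fd.val y]
    push_cast
    ring)
  rw [v0] at hpar
  rcases vc with ⟨a1, a2⟩ | ⟨a1, a2⟩ | ⟨a1, a2⟩ <;> rcases vd with ⟨b1, b2⟩ | ⟨b1, b2⟩ | ⟨b1, b2⟩ <;> rw [a1, b1] at hpar
  · exact (hpar (by decide)).elim
  · exact Or.inl ⟨a2, Or.inl b2⟩
  · exact Or.inl ⟨a2, Or.inr b2⟩
  · exact Or.inr ⟨b2, Or.inl a2⟩
  · exact (hpar (by decide)).elim
  · exact (hpar (by decide)).elim
  · exact Or.inr ⟨b2, Or.inr a2⟩
  · exact (hpar (by decide)).elim
  · exact (hpar (by decide)).elim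

theorem Four.r67 (F : Four ψ c d) : LySearch.U (charDegree (c : G → ℂ)) (charDegree (d : G → ℂ)) 67 := by
  have hf : Fact (Nat.Prime 67) := ⟨by norm_num⟩
  have h := F.sc (p := 67) (e := 22) (b := 9) F.D.c67 (by rw [F.D.card]; norm_num) (by rw [F.D.card]; norm_num)
    (by rw [F.D.card]) (by norm_num) (by norm_num) (by norm_num) (by norm_num) (by norm_num) (by norm_num)
  unfold LySearch.U
  push_cast at h
  omega

theorem Four.r37 (F : Four ψ c d) : LySearch.U (charDegree (c : G → ℂ)) (charDegree (d : G → ℂ)) 37 := by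
  have hf : Fact (Nat.Prime 37) := ⟨by norm_num⟩
  have h := F.sc (p := 37) (e := 18) (b := 7) F.D.c37 (by rw [F.D.card]; norm_num) (by rw [F.D.card]; norm_num)
    (by rw [F.D.card]) (by norm_num) (by norm_num) (by norm_num) (by norm_num) (by norm_num) (by norm_num)
  unfold LySearch.U
  push_cast at h
  omega

theorem Four.r31 (F : Four ψ c d) : LySearch.U (charDegree (c : G → ℂ)) (charDegree (d : G → ℂ)) 31 := by
  have hf : Fact (Nat.Prime 31) := ⟨by norm_num⟩
  have h := F.sc (p := 31) (e := 6) (b := 6) F.D.c31 (by rw [F.D.card]; norm_num) (by rw [F.D.card]; norm_num)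
    (by rw [F.D.card]) (by norm_num) (by norm_num) (by norm_num) (by norm_num) (by norm_num) (by norm_num)
  unfold LySearch.U
  push_cast at h
  omega

/-! ### the prime 11 -/

/-- **The prime 11.** -/
theorem Four.eleven (F : Four ψ c d) : ∃ (M : Ideal AlgInt) (P : Sylow 11 G), IsPModular 11 M ∧ Nat.card P = 11 ∧
    (centralizer ((P : Subgroup G) : Set G)).relIndex (normalizer ((P : Subgroup G) : Set G)) = 5 ∧
    (∀ χ ∈ principalBlock M G, (charDegree (χ : G → ℂ) % 11 = 1 ∨ charDegree (χ : G → ℂ) % 11 = 10) ∨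
      (charDegree (χ : G → ℂ) % 11 = 5 ∨ charDegree (χ : G → ℂ) % 11 = 6)) ∧
    (c ∈ principalBlock M G ∨ d ∈ principalBlock M G) := by
  classical
  have D := F.D
  have hf : Fact (Nat.Prime 11) := ⟨by norm_num⟩
  obtain ⟨z, hz⟩ := exists_prime_orderOf_dvd_card' (G := G) 11 (by rw [D.card]; norm_num)
  obtain ⟨P, hP, hPz, -⟩ := exists_sylow (by rw [D.card]; norm_num) (by rw [D.card]; norm_num) hz
  obtain ⟨M, hM⟩ := Cfsg.Agent.Blocks.ExistsModular.exists_isPModular hf.out
  have hMp : M.IsPrime := hM.2.1.isPrime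
  obtain ⟨h1, h2⟩ := D.c11 (P : Subgroup G) hP
  have he := relIndex_of (P : Subgroup G) (e := 5) h1 h2 (by norm_num) (by norm_num)
  have B : ∀ χ ∈ principalBlock M G, (charDegree (χ : G → ℂ) % 11 = 1 ∨ charDegree (χ : G → ℂ) % 11 = 10) ∨
      (charDegree (χ : G → ℂ) % 11 = 5 ∨ charDegree (χ : G → ℂ) % 11 = 6) := by
    intro χ hχ
    have h3 := (S0960.result 11 M hM (by norm_num) P hP 5 he).2 χ hχ
    simp only [Int.ModEq] at h3
    push_cast at h3
    omega
  refine ⟨M, P, hM, hP, he, B, ?_⟩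
  by_contra hcon
  rw [not_or] at hcon
  have m1 : (one : IrrCharacter G) ∈ principalBlock M G := Cfsg.Agent.Blocks.PrincipalSection.one_mem_principalBlock
  have mψ : ψ ∉ principalBlock M G := by
    intro h
    have h6 := B ψ h
    rw [D.dψ] at h6
    omega
  have g1 : Good ((one : IrrCharacter G) : G → ℂ) := (F.mem one).2 (by simp)
  have ho : Odd (orderOf z) := by rw [hz]; decide
  obtain ⟨χ, hχ, hg, hns⟩ := new_in_block D.twoC hM ho (by rw [hz]) ({one} : Finset (IrrCharacter G)) (by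
    intro χ hχ
    rw [Finset.mem_singleton] at hχ
    rw [hχ]
    exact ⟨m1, g1⟩) (n := 1) (by decide) (by
    rw [Finset.sum_singleton, show ((one : IrrCharacter G) : G → ℂ) z = 1 from rfl]
    norm_num)
  rw [Finset.mem_singleton] at hns
  rcases (F.mem χ).1 hg with h | h | h | h
  · exact hns h
  · exact mψ (h ▸ hχ)
  · exact hcon.1 (h ▸ hχ)
  · exact hcon.2 (h ▸ hχ)

/-! ### the two remaining cases -/

theorem Four.case1 (F : Four ψ c d) (hc : charDegree (c : G → ℂ) = 3871125)
    (hd : charDegree (d : G → ℂ) = 105525 ∨ charDegree (d : G → ℂ) = 417879 ∨ charDegree (d : G → ℂ) = 103640625) :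
    False := by
  obtain ⟨M, P, hM, hP, he, B, hB⟩ := F.eleven
  have hf : Fact (Nat.Prime 11) := ⟨by norm_num⟩
  have md : d ∉ principalBlock M G := by
    intro h
    have h1 := B d h
    omega
  have mc : c ∈ principalBlock M G := hB.resolve_right md
  obtain ⟨θ, h1, h2, h3⟩ := exc_pair hM (by norm_num) P hP he (by norm_num) mc (by rw [hc]; norm_num)
    (by rw [hc]; norm_num) F.seven.1
  have gθ : Good (θ : G → ℂ) := by
    refine Cfsg.Agent.H329.K4.good_of F.D.twoC ⟨θ.2, by rw [h2, hc]; norm_num⟩ ?_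
    exact SigFix.of_pow fun m hm g => h3 m hm g
  rcases (F.mem θ).1 gθ with h | h | h | h
  · rw [h, charDegree_one, hc] at h2
    omega
  · rw [h, F.D.dψ, hc] at h2
    omega
  · exact h1 h
  · rw [h, hc] at h2
    omega

theorem Four.case2 (F : Four ψ c d) (hc : charDegree (c : G → ℂ) = 70804125) : False := by
  classical
  have D := F.D
  have fc := F.seven.1
  have hf : Fact (Nat.Prime 11) := ⟨by norm_num⟩
  have hf3 : Fact (Nat.Prime 3) := ⟨by norm_num⟩
  obtain ⟨y, hy⟩ := exists_prime_orderOf_dvd_card' (G := G) 11 (by rw [D.card]; norm_num)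
  have hC : Nat.card (centralizer ({y} : Set G)) = 66 := by
    have h1 := (D.c11 (zpowers y) (by rw [Nat.card_zpowers, hy])).1
    rwa [zpowers_eq_closure, centralizer_closure] at h1
  obtain ⟨⟨w, hwc⟩, hw⟩ := exists_prime_orderOf_dvd_card' (G := centralizer ({y} : Set G)) 3 (by rw [hC]; norm_num)
  have hw' : orderOf w = 3 := by rw [← hw, Subgroup.orderOf_mk]
  have hcm : Commute w y := (mem_centralizer_singleton_iff.1 hwc)
  have h3 : 3 ∣ orderOf (w * y) := by
    rw [hcm.orderOf_mul_eq_mul_orderOf_of_coprime (by rw [hw', hy]; norm_num), hw', hy]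
    norm_num
  have h0 : (c : G → ℂ) (w * y) = 0 := dz (p := 3) (n := 7) Nat.prime_three (by rw [D.card]; norm_num)
    (by rw [D.card]; norm_num) (by rw [hc]; norm_num) h3
  have h4 : vl c (w * y) = 0 := by
    unfold vl
    rw [h0]
    simp
  have h5 := modEq_of_mul fc hw' (by rw [hy]; norm_num) hcm
  rw [h4] at h5
  have h6 := fc.modEq hy
  rw [hc] at h6
  have h7 := sum_sq_le ({(one : IrrCharacter G), c} : Finset (IrrCharacter G)) (by
    intro φ hφ
    rw [Finset.mem_insert, Finset.mem_singleton] at hφ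
    rcases hφ with rfl | rfl
    · exact fx_one
    · exact fc) y
  rw [Finset.sum_insert (by simpa using F.h1c), Finset.sum_singleton, vl_one, hC] at h7
  push_cast at h5 h6 h7
  have h8 : vl c y < 9 := by nlinarith
  have h9 : -9 < vl c y := by nlinarith
  omega

theorem Four.sq (F : Four ψ c d) : charDegree (c : G → ℂ) * charDegree (c : G → ℂ) ≤ 51765179004000000 := by
  have fc := F.seven.1
  have h1 := sum_sq_le ({c} : Finset (IrrCharacter G)) (by
    intro φ hφ
    rw [Finset.mem_singleton] at hφ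
    rw [hφ]
    exact fc) (1 : G)
  have h2 : vl c (1 : G) = charDegree (c : G → ℂ) := by
    unfold vl
    rw [Cfsg.Agent.Blocks.Basic.irr_one_eq_charDegree c.2]
    simp
  have h3 : Nat.card (centralizer ({(1 : G)} : Set G)) ≤ Nat.card G := Subgroup.card_le_card_group _
  rw [Finset.sum_singleton, h2] at h1
  rw [F.D.card] at h3
  have h4 : (Nat.card (centralizer ({(1 : G)} : Set G)) : ℤ) ≤ 51765179004000000 := by exact_mod_cast h3
  have h5 : (charDegree (c : G → ℂ) : ℤ) * charDegree (c : G → ℂ) ≤ 51765179004000000 := by nlinarith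
  exact_mod_cast h5

theorem Four.absurd0 (F : Four ψ c d) (h37 : charDegree (c : G → ℂ) % 37 = 0 ∧
    (charDegree (d : G → ℂ) % 37 = 1 ∨ charDegree (d : G → ℂ) % 37 = 36)) : False := by
  have D := F.D
  have gc : Good (c : G → ℂ) := (F.mem c).2 (by simp)
  have gd : Good (d : G → ℂ) := (F.mem d).2 (by simp)
  have dv : ∀ χ : IrrCharacter G, charDegree (χ : G → ℂ) ∣ 51765179004000000 := by
    intro χ
    rw [← D.card]
    exact Cfsg.Agent.Blocks.CyclicUpper.charDegree_dvd χ.2
  have one_of : ∀ χ : IrrCharacter G, charDegree (χ : G → ℂ) = 1 → one = χ := fun χ hχ =>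
    Subtype.ext (funext fun g => (D.lin χ hχ g).symm)
  obtain ⟨M, P, hM, hP, he, B, hB⟩ := F.eleven
  have h11 := hB.imp (B c) (B d)
  rcases LySearch.search (dv c) gc.odd.2 (dv d) gd.odd.2 (fun h => F.h1d (one_of d h)) h37 F.r31 F.r67 F.sq F.symm.sq
    F.seven.2.2 h11 with ⟨h1, h2⟩ | ⟨h1, h2⟩
  · exact F.case1 h1 h2
  · exact F.case2 h1

theorem Four.absurd (F : Four ψ c d) : False := by
  rcases F.r37 with h | h
  · exact F.absurd0 h
  · exact F.symm.absurd0 h

/-- **Five good characters.** -/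
theorem good5_of_data (D : Data ψ) : Good5 G := by
  classical
  by_contra h5
  have hC := D.twoC
  have hev : Even (Nat.card G) := by rw [D.card]; decide
  have hf : Fact (Nat.Prime 67) := ⟨by norm_num⟩
  obtain ⟨y, hy⟩ := exists_prime_orderOf_dvd_card' (G := G) 67 (by rw [D.card]; norm_num)
  have hψy : (ψ : G → ℂ) y = 0 := dz (p := 67) (n := 1) hf.out (by rw [D.card]; norm_num)
    (by rw [D.card]; norm_num) (by rw [D.dψ]; norm_num) (by rw [hy])
  have hne : ∀ {a b : IrrCharacter G}, a ≠ b → (a : G → ℂ) ≠ (b : G → ℂ) := fun h h' => h (Subtype.ext h')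
  have g1 : Good ((one : IrrCharacter G) : G → ℂ) := Cfsg.Agent.H329.K4.good_one hC
  have gψ : Good (ψ : G → ℂ) := by
    refine Cfsg.Agent.H329.K4.good_of hC ⟨ψ.2, by rw [D.dψ]; norm_num⟩ ?_
    exact SigFix.of_pow fun m hm g => D.fx m hm g
  -- the third one
  obtain ⟨c', hc', hcs⟩ := Cfsg.Agent.H329.K4.exists_new hC hev {((one : IrrCharacter G) : G → ℂ), (ψ : G → ℂ)}
    (by
      intro φ hφ
      rw [Finset.mem_insert, Finset.mem_singleton] at hφ
      rcases hφ with rfl | rfl
      · exact g1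
      · exact gψ) (t := y) (by rw [hy]; decide) (n := 1) (by decide) (by
      rw [Finset.sum_insert (by simpa using hne D.one_ne), Finset.sum_singleton, hψy,
        show ((one : IrrCharacter G) : G → ℂ) y = 1 from rfl]
      norm_num)
  obtain ⟨c, hcc⟩ : ∃ c : IrrCharacter G, (c : G → ℂ) = c' := ⟨⟨c', hc'.odd.1⟩, rfl⟩
  rw [← hcc] at hc' hcs
  rw [Finset.mem_insert, Finset.mem_singleton, not_or] at hcs
  have h1c : (one : IrrCharacter G) ≠ c := fun h => hcs.1 (by rw [h])
  have hψc : ψ ≠ c := fun h => hcs.2 (by rw [h])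
  -- the fourth one
  obtain ⟨d', hd', hds⟩ := Cfsg.Agent.H329.K4.exists_new hC hev
    {((one : IrrCharacter G) : G → ℂ), (ψ : G → ℂ), (c : G → ℂ)}
    (by
      intro φ hφ
      rw [Finset.mem_insert, Finset.mem_insert, Finset.mem_singleton] at hφ
      rcases hφ with rfl | rfl | rfl
      · exact g1
      · exact gψ
      · exact hc') (t := 1) (by rw [orderOf_one]; decide) (n := 4226696 + charDegree (c : G → ℂ)) (by
        have h2 := hc'.odd.2
        rw [Int.odd_iff]
        omega) (by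
      rw [Finset.sum_insert (by simpa using ⟨hne D.one_ne, hne h1c⟩),
        Finset.sum_insert (by simpa using hne hψc), Finset.sum_singleton,
        Cfsg.Agent.Blocks.Basic.irr_one_eq_charDegree ψ.2, Cfsg.Agent.Blocks.Basic.irr_one_eq_charDegree c.2, D.dψ,
        show ((one : IrrCharacter G) : G → ℂ) 1 = 1 from rfl]
      push_cast
      ring)
  obtain ⟨d, hdd⟩ : ∃ d : IrrCharacter G, (d : G → ℂ) = d' := ⟨⟨d', hd'.odd.1⟩, rfl⟩
  rw [← hdd] at hd' hds
  rw [Finset.mem_insert, Finset.mem_insert, Finset.mem_singleton, not_or, not_or] at hds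
  have h1d : (one : IrrCharacter G) ≠ d := fun h => hds.1 (by rw [h])
  have hψd : ψ ≠ d := fun h => hds.2.1 (by rw [h])
  have hcd : c ≠ d := fun h => hds.2.2 (by rw [h])
  -- there is no other one
  have F : Four ψ c d := by
    refine ⟨D, fun χ => ⟨fun hχ => ?_, ?_⟩, h1c, h1d, hψc, hψd, hcd⟩
    · by_contra hcon
      push Not at hcon
      obtain ⟨n1, n2, n3, n4⟩ := hcon
      apply h5
      obtain ⟨s, hs⟩ : ∃ s : Finset (G → ℂ), s = {(χ : G → ℂ), ((one : IrrCharacter G) : G → ℂ), (ψ : G → ℂ),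
        (c : G → ℂ), (d : G → ℂ)} := ⟨_, rfl⟩
      refine Cfsg.Agent.H329.K4.good5_of_finset s ?_ ?_
      · intro φ hφ
        rw [hs] at hφ
        simp only [Finset.mem_insert, Finset.mem_singleton] at hφ
        rcases hφ with rfl | rfl | rfl | rfl | rfl
        · exact hχ
        · exact g1
        · exact gψ
        · exact hc'
        · exact hd'
      · rw [hs, Finset.card_insert_of_notMem, Finset.card_insert_of_notMem, Finset.card_insert_of_notMem,
          Finset.card_pair (hne hcd)]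
        · simpa using ⟨hne hψc, hne hψd⟩
        · simpa using ⟨hne D.one_ne, hne h1c, hne h1d⟩
        · simpa using ⟨hne n1, hne n2, hne n3, hne n4⟩
    · rintro (rfl | rfl | rfl | rfl)
      · exact g1
      · exact gψ
      · exact hc'
      · exact hd'
  exact F.absurd

end Cfsg.Agent.H536.K4.LyGood
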